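import Mathlib
import Cfsg.Prelude.Def_OddOrderLocal
import Cfsg.Statements.S1350
import Cfsg.Statements.S1403
import Cfsg.Statements.S1404
import Cfsg.Statements.S1405
import Cfsg.Statements.S1406
import Cfsg.Statements.S1407
import Cfsg.Statements.S1408
import Cfsg.Statements.S1409
import Cfsg.Statements.S1410
import Cfsg.Statements.S1411
import Cfsg.Statements.S1412
import Cfsg.Statements.S1413
import Cfsg.Statements.S1414
import Cfsg.Statements.S1415
import Cfsg.Statements.S1416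
import Cfsg.Statements.S1417
import Cfsg.Statements.S1418
import Cfsg.Statements.S1419
import Cfsg.Statements.S1420
import Cfsg.Statements.S1422
import Cfsg.Statements.S1423
import Cfsg.Statements.S1424
import Cfsg.Statements.S1425
import Cfsg.Statements.S1426
import Cfsg.Statements.S1427
import Cfsg.Statements.S1428
import Cfsg.Statements.S1429
import Cfsg.Agent.Lib.Helper25.BG.S1430Defs

/-!
# S1430 (Bender–Glauberman 14.3 (a),(b)): bookkeeping packages for CASE I of the assembly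

The assembly `s1430_of` is helper25's (`Cfsg.Agent.Lib.Helper25.BG30`, black boxes `Hyp1311`,
`Hyp1312`, `HypOpenD`).  This file fixes the exact statements of the steps of CASE I
(`E₃` regular on `M_σ`; notes 1915/1960/1985, topic `S1430`) so that they can be proved in
parallel; `caseI` (helper50) glues them into clauses (1), (2), (3a), (3b).

Each `Lem…` below is the exact statement of one package; a package is a theorem
`… : Cfsg.Agent.Lib.Helper50.BG30.Lem….{u}` proved in the taker's own Lib file.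

Notation: `M_σ = Cfsg.sigmaCore M`; `E` a complement of `M_σ` in `M`
(`Cfsg.IsComplIn E (Cfsg.sigmaCore M) M`); `K` a Hall `κ(M)`-subgroup of `M`.
`Hy hG` bundles the earlier statements of the chain (for the fixed group `G`).
-/

set_option autoImplicit false

namespace Cfsg.Agent.Lib.Helper50.BG30

open Cfsg

universe u

/-- The earlier statements of the Bender–Glauberman chain available to S1430, for `G`. -/
structure Hy {G : Type u} [Group G] [Finite G] (hG : Cfsg.IsMinSimpleOddOrder G) : Prop where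
  h1350 : type_of% (@Cfsg.CfsgFrozen.S1350 G _ _ hG)
  h1403 : type_of% (@Cfsg.CfsgFrozen.S1403 G _ _ hG)
  h1404 : type_of% (@Cfsg.CfsgFrozen.S1404 G _ _ hG)
  h1405 : type_of% (@Cfsg.CfsgFrozen.S1405 G _ _ hG)
  h1406 : type_of% (@Cfsg.CfsgFrozen.S1406 G _ _ hG)
  h1407 : type_of% (@Cfsg.CfsgFrozen.S1407 G _ _ hG)
  h1408 : type_of% (@Cfsg.CfsgFrozen.S1408 G _ _ hG)
  h1409 : type_of% (@Cfsg.CfsgFrozen.S1409 G _ _ hG)
  h1410 : type_of% (@Cfsg.CfsgFrozen.S1410 G _ _ hG)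
  h1411 : type_of% (@Cfsg.CfsgFrozen.S1411 G _ _ hG)
  h1412 : type_of% (@Cfsg.CfsgFrozen.S1412 G _ _ hG)
  h1413 : type_of% (@Cfsg.CfsgFrozen.S1413 G _ _ hG)
  h1414 : type_of% (@Cfsg.CfsgFrozen.S1414 G _ _ hG)
  h1415 : type_of% (@Cfsg.CfsgFrozen.S1415 G _ _ hG)
  h1416 : type_of% (@Cfsg.CfsgFrozen.S1416 G _ _ hG)
  h1417 : type_of% (@Cfsg.CfsgFrozen.S1417 G _ _ hG)
  h1418 : type_of% (@Cfsg.CfsgFrozen.S1418 G _ _ hG)
  h1419 : type_of% (@Cfsg.CfsgFrozen.S1419 G _ _ hG)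
  h1420 : type_of% (@Cfsg.CfsgFrozen.S1420 G _ _ hG)
  h1422 : type_of% (@Cfsg.CfsgFrozen.S1422 G _ _ hG)
  h1423 : type_of% (@Cfsg.CfsgFrozen.S1423 G _ _ hG)
  h1424 : type_of% (@Cfsg.CfsgFrozen.S1424 G _ _ hG)
  h1425 : type_of% (@Cfsg.CfsgFrozen.S1425 G _ _ hG)
  h1426 : type_of% (@Cfsg.CfsgFrozen.S1426 G _ _ hG)
  h1427 : type_of% (@Cfsg.CfsgFrozen.S1427 G _ _ hG)
  h1428 : type_of% (@Cfsg.CfsgFrozen.S1428 G _ _ hG)
  h1429 : type_of% (@Cfsg.CfsgFrozen.S1429 G _ _ hG)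

/-- CASE I of the assembly: no subgroup of `E` of prime order in `τ₃(M)` centralizes a
non-identity element of `M_σ` (the negation of the hypothesis of `Hyp1311`). -/
def Tau3Reg {G : Type u} [Group G] (M E : Subgroup G) : Prop :=
  ∀ r ∈ Cfsg.tau3 M, ∀ R : Subgroup G, R ≤ E → Nat.card R = r →
    Cfsg.sigmaCore M ⊓ Subgroup.centralizer (R : Set G) = ⊥

/-- Clauses (1), (2), (3a), (3b) of S1430 for `(M, K)`. -/
def ConclAB {G : Type u} [Group G] (M K : Subgroup G) : Prop :=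
  (∀ k ∈ K, k ≠ 1 → Cfsg.sigmaCore M ⊓ Subgroup.centralizer ({k} : Set G) =
      Cfsg.sigmaCore M ⊓ Subgroup.centralizer (K : Set G)) ∧
  (∃ U : Subgroup G, IsMulCommutative U ∧
      Cfsg.IsPiHallOf {q | q.Prime ∧ q ∉ Cfsg.kappa M ∧ q ∉ Cfsg.sigma M} U M ∧
      K ≤ Subgroup.normalizer (U : Set G) ∧
      ∀ k ∈ K, k ≠ 1 → U ⊓ Subgroup.centralizer ({k} : Set G) = ⊥) ∧
  ∀ X : Subgroup G, X ≤ K → (Nat.card X).Prime →
    M ⊓ Subgroup.normalizer (X : Set G) =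
        K ⊔ (Cfsg.sigmaCore M ⊓ Subgroup.centralizer (K : Set G)) ∧
      M ⊓ Subgroup.normalizer (K : Set G) =
        K ⊔ (Cfsg.sigmaCore M ⊓ Subgroup.centralizer (K : Set G))

/-- Package ComplGe: a Hall `κ(M)`-subgroup lies in a complement of `M_σ`. -/
def LemComplGe : Prop :=
  ∀ {G : Type u} [Group G] [Finite G] (hG : Cfsg.IsMinSimpleOddOrder G) (_hy : Hy hG)
    (M : Subgroup G) (_hM : IsCoatom M) (K : Subgroup G)
    (_hK : Cfsg.IsPiHallOf (Cfsg.kappa M) K M),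
    ∃ E : Subgroup G, Cfsg.IsComplIn E (Cfsg.sigmaCore M) M ∧ K ≤ E

/-- Package KappaFix (pure): a subgroup of `M` of order `p ∈ κ(M)` has a non-trivial
fixed point on `M_σ`. -/
def LemKappaFix : Prop :=
  ∀ {G : Type u} [Group G] [Finite G] (M : Subgroup G) (p : ℕ) (_hp : p ∈ Cfsg.kappa M)
    (X : Subgroup G) (_hXM : X ≤ M) (_hX : Nat.card X = p),
    Cfsg.sigmaCore M ⊓ Subgroup.centralizer (X : Set G) ≠ ⊥

/-- Package KappaTau1: in CASE I, `κ(M) ⊆ τ₁(M)`. -/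
def LemKappaTau1 : Prop :=
  LemKappaFix.{u} →
  ∀ {G : Type u} [Group G] [Finite G] (hG : Cfsg.IsMinSimpleOddOrder G) (_hy : Hy hG)
    (M : Subgroup G) (_hM : IsCoatom M) (E : Subgroup G)
    (_hE : Cfsg.IsComplIn E (Cfsg.sigmaCore M) M) (_hreg : Tau3Reg M E)
    (p : ℕ) (_hp : p ∈ Cfsg.kappa M), p ∈ Cfsg.tau1 M

/-- Package Uex: if `κ(M) ⊆ τ₁(M)` then `E` has a normal complement `U` to `K`, and `U` is a
Hall `(κ(M) ∪ σ(M))'`-subgroup of `M`. -/
def LemUex : Prop :=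
  ∀ {G : Type u} [Group G] [Finite G] (hG : Cfsg.IsMinSimpleOddOrder G) (_hy : Hy hG)
    (M : Subgroup G) (_hM : IsCoatom M) (E : Subgroup G)
    (_hE : Cfsg.IsComplIn E (Cfsg.sigmaCore M) M) (K : Subgroup G)
    (_hK : Cfsg.IsPiHallOf (Cfsg.kappa M) K M) (_hKE : K ≤ E)
    (_hκ : ∀ p ∈ Cfsg.kappa M, p ∈ Cfsg.tau1 M),
    ∃ U : Subgroup G, E ≤ Subgroup.normalizer (U : Set G) ∧
      Cfsg.IsPiHallOf {q | q.Prime ∧ q ∉ Cfsg.kappa M ∧ q ∉ Cfsg.sigma M} U M ∧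
      Cfsg.IsComplIn U K E

/-- Package Ureg: if `κ(M) ⊆ τ₁(M)` then no non-identity element of `K` centralizes a
non-identity element of a Hall `(κ(M) ∪ σ(M))'`-subgroup `U ≤ E` (S1428, S1418, 13.12). -/
def LemUreg : Prop :=
  LemKappaFix.{u} →
  ∀ {G : Type u} [Group G] [Finite G] (hG : Cfsg.IsMinSimpleOddOrder G) (_hy : Hy hG)
    (_h12 : Cfsg.Agent.Lib.Helper25.BG30.Hyp1312 G)
    (M : Subgroup G) (_hM : IsCoatom M) (E : Subgroup G)
    (_hE : Cfsg.IsComplIn E (Cfsg.sigmaCore M) M) (K : Subgroup G)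
    (_hK : Cfsg.IsPiHallOf (Cfsg.kappa M) K M) (_hKE : K ≤ E)
    (_hκ : ∀ p ∈ Cfsg.kappa M, p ∈ Cfsg.tau1 M) (U : Subgroup G) (_hUE : U ≤ E)
    (_hU : Cfsg.IsPiHallOf {q | q.Prime ∧ q ∉ Cfsg.kappa M ∧ q ∉ Cfsg.sigma M} U M)
    (k : G) (_hk : k ∈ K) (_hk1 : k ≠ 1),
    U ⊓ Subgroup.centralizer ({k} : Set G) = ⊥

end Cfsg.Agent.Lib.Helper50.BG30
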