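import Mathlib
import Cfsg.Prelude.Def_OddOrderLocal

/-!
Pure group theory for clauses (3a), (3b) of S1430: the normalizer formula
`N_M(X) = K C_S(K)`.
-/

set_option autoImplicit false

namespace Cfsg.Agent.Lib.Helper50.BG30

open Cfsg

/-- `M = E S` with `S` normal in `M`, `E = U K` with `U` normal in `E`, `K` regular on `U` and
semiprime on `S`; then `N_M(X) = K C_S(K)` for every non-trivial `X ≤ K` normalized by `K`. -/
theorem norm_formula {G : Type*} [Group G] (M S E U K : Subgroup G)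
    (h1 : Cfsg.IsComplIn E S M) (h2 : M ≤ Subgroup.normalizer (S : Set G))
    (h3 : Cfsg.IsComplIn U K E) (h4 : E ≤ Subgroup.normalizer (U : Set G))
    (h5 : ∀ k ∈ K, k ≠ 1 → U ⊓ Subgroup.centralizer ({k} : Set G) = ⊥)
    (h6 : ∀ k ∈ K, k ≠ 1 → S ⊓ Subgroup.centralizer ({k} : Set G) =
      S ⊓ Subgroup.centralizer (K : Set G))
    (X : Subgroup G) (hXK : X ≤ K) (hX1 : X ≠ ⊥)
    (hKX : K ≤ Subgroup.normalizer (X : Set G)) :
    M ⊓ Subgroup.normalizer (X : Set G) = K ⊔ (S ⊓ Subgroup.centralizer (K : Set G)) := by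
  obtain ⟨hEM, hSM, hES, hMfac⟩ := h1
  obtain ⟨hUE, hKE, hUK, hEfac⟩ := h3
  have hKM : K ≤ M := hKE.trans hEM
  apply le_antisymm
  · intro m hm
    obtain ⟨hmM, hmN⟩ := Subgroup.mem_inf.mp hm
    obtain ⟨e, he, s, hs, rfl⟩ := hMfac m hmM
    obtain ⟨u, hu, k, hk, rfl⟩ := hEfac e he
    have hkM : k ∈ M := hKM hk
    have hs' : k * s * k⁻¹ ∈ S := (Subgroup.mem_normalizer_iff.mp (h2 hkM) s).mp hs
    have hn : u * (k * s * k⁻¹) ∈ Subgroup.normalizer (X : Set G) := by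
      have e1 : u * (k * s * k⁻¹) = (u * k * s) * k⁻¹ := by group
      rw [e1]
      exact Subgroup.mul_mem _ hmN (Subgroup.inv_mem _ (hKX hk))
    obtain ⟨⟨x, hxX⟩, hx1'⟩ := (Subgroup.ne_bot_iff_exists_ne_one).mp hX1
    have hx1 : x ≠ 1 := fun h => hx1' (Subtype.ext h)
    have hxK : x ∈ K := hXK hxX
    have hxE : x ∈ E := hKE hxK
    have hxM : x ∈ M := hEM hxE
    have huE : u ∈ E := hUE hu
    have huM : u ∈ M := hEM huE
    -- y := n x n⁻¹ x⁻¹ ∈ X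
    have hy : u * (k * s * k⁻¹) * x * (u * (k * s * k⁻¹))⁻¹ * x⁻¹ ∈ X :=
      X.mul_mem ((Subgroup.mem_normalizer_iff.mp hn x).mp hxX) (X.inv_mem hxX)
    -- c := u x u⁻¹ x⁻¹ ∈ U
    have hc : u * (x * u⁻¹ * x⁻¹) ∈ U :=
      U.mul_mem hu ((Subgroup.mem_normalizer_iff.mp (h4 hxE) u⁻¹).mp (U.inv_mem hu))
    -- s'' := u (s' x s'⁻¹ x⁻¹) u⁻¹ ∈ S
    have hs2 : (k * s * k⁻¹) * (x * (k * s * k⁻¹)⁻¹ * x⁻¹) ∈ S :=
      S.mul_mem hs' ((Subgroup.mem_normalizer_iff.mp (h2 hxM) _).mp (S.inv_mem hs'))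
    have hs3 : u * ((k * s * k⁻¹) * (x * (k * s * k⁻¹)⁻¹ * x⁻¹)) * u⁻¹ ∈ S :=
      (Subgroup.mem_normalizer_iff.mp (h2 huM) _).mp hs2
    have hid : u * (k * s * k⁻¹) * x * (u * (k * s * k⁻¹))⁻¹ * x⁻¹ =
        (u * ((k * s * k⁻¹) * (x * (k * s * k⁻¹)⁻¹ * x⁻¹)) * u⁻¹) * (u * (x * u⁻¹ * x⁻¹)) := by
      group
    -- s'' = y c⁻¹ ∈ E ⊓ S = ⊥
    have hs4 : u * ((k * s * k⁻¹) * (x * (k * s * k⁻¹)⁻¹ * x⁻¹)) * u⁻¹ ∈ E := by
      have e2 : u * ((k * s * k⁻¹) * (x * (k * s * k⁻¹)⁻¹ * x⁻¹)) * u⁻¹ =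
          (u * (k * s * k⁻¹) * x * (u * (k * s * k⁻¹))⁻¹ * x⁻¹) * (u * (x * u⁻¹ * x⁻¹))⁻¹ := by
        rw [hid]; group
      rw [e2]
      exact E.mul_mem (hKE (hXK hy)) (E.inv_mem (hUE hc))
    have hs5 : u * ((k * s * k⁻¹) * (x * (k * s * k⁻¹)⁻¹ * x⁻¹)) * u⁻¹ = 1 := by
      have : u * ((k * s * k⁻¹) * (x * (k * s * k⁻¹)⁻¹ * x⁻¹)) * u⁻¹ ∈ E ⊓ S :=
        Subgroup.mem_inf.mpr ⟨hs4, hs3⟩
      rw [hES] at this
      exact Subgroup.mem_bot.mp this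
    -- c ∈ U ⊓ K = ⊥
    have hc1 : u * (x * u⁻¹ * x⁻¹) = 1 := by
      have hcK : u * (x * u⁻¹ * x⁻¹) ∈ K := by
        have e3 : u * (x * u⁻¹ * x⁻¹) =
            u * (k * s * k⁻¹) * x * (u * (k * s * k⁻¹))⁻¹ * x⁻¹ := by
          rw [hid, hs5, one_mul]
        rw [e3]
        exact hXK hy
      have : u * (x * u⁻¹ * x⁻¹) ∈ U ⊓ K := Subgroup.mem_inf.mpr ⟨hc, hcK⟩
      rw [hUK] at this
      exact Subgroup.mem_bot.mp this
    -- u commutes with x, hence u = 1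
    have hux : x * u = u * x := by
      have e4 : u * x = (u * (x * u⁻¹ * x⁻¹)) * (x * u) := by group
      rw [e4, hc1, one_mul]
    have hu1 : u = 1 := by
      have : u ∈ U ⊓ Subgroup.centralizer ({x} : Set G) := by
        refine Subgroup.mem_inf.mpr ⟨hu, ?_⟩
        rw [Subgroup.mem_centralizer_iff]
        intro h hh
        rw [Set.mem_singleton_iff] at hh
        rw [hh]; exact hux
      rw [h5 x hxK hx1] at this
      exact Subgroup.mem_bot.mp this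
    -- s' commutes with x
    have hsx : x * (k * s * k⁻¹) = (k * s * k⁻¹) * x := by
      have e5 : (k * s * k⁻¹) * (x * (k * s * k⁻¹)⁻¹ * x⁻¹) = 1 := by
        have e6 : (k * s * k⁻¹) * (x * (k * s * k⁻¹)⁻¹ * x⁻¹) =
            u⁻¹ * (u * ((k * s * k⁻¹) * (x * (k * s * k⁻¹)⁻¹ * x⁻¹)) * u⁻¹) * u := by group
        rw [e6, hs5]; group
      have e7 : (k * s * k⁻¹) * x =
          ((k * s * k⁻¹) * (x * (k * s * k⁻¹)⁻¹ * x⁻¹)) * (x * (k * s * k⁻¹)) := by group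
      rw [e7, e5, one_mul]
    have hs6 : k * s * k⁻¹ ∈ S ⊓ Subgroup.centralizer (K : Set G) := by
      rw [← h6 x hxK hx1]
      refine Subgroup.mem_inf.mpr ⟨hs', ?_⟩
      rw [Subgroup.mem_centralizer_iff]
      intro h hh
      rw [Set.mem_singleton_iff] at hh
      rw [hh]; exact hsx
    have e8 : u * k * s = (k * s * k⁻¹) * k := by rw [hu1]; group
    rw [e8]
    exact Subgroup.mul_mem _ (Subgroup.mem_sup_right hs6) (Subgroup.mem_sup_left hk)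
  · refine sup_le (le_inf hKM hKX) (le_inf (inf_le_left.trans hSM) (inf_le_right.trans ?_))
    exact (Subgroup.centralizer_le (show (X : Set G) ⊆ (K : Set G) from hXK)).trans
      (Subgroup.centralizer_le_normalizer _)

end Cfsg.Agent.Lib.Helper50.BG30
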