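import Mathlib
import Cfsg.Prelude.Def_OddOrderLocal
import Cfsg.Agent.Lib.Helper50.BG.S1430Defs
import Cfsg.Agent.Lib.Helper50.BG.S1430Norm
import Cfsg.Agent.Lib.Helper67.BG.HallUtil
import Cfsg.Agent.Lib.Helper85.BG.Tau1Semiprime

/-!
S1430, CASE I (`E₃` regular on `M_σ`): clauses (1), (2), (3a), (3b) from the packages
`LemKappaFix`, `LemKappaTau1`, `LemUex`, `LemUreg` of `S1430Defs`, `norm_formula` and
helper85's `tau1_semiprime`.
-/

set_option autoImplicit false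

namespace Cfsg.Agent.Lib.Helper50.BG30

open Cfsg

universe u

/-- If `k ∈ K` normalizes `U` and centralizes no non-identity element of `U`, then
`U ≤ [M, M]` when `U, K ≤ M` (every element of `U` is a commutator `[v, k]`). -/
theorem le_comm_of_fpf' {G : Type*} [Group G] [Finite G] {M K U : Subgroup G} (hUM : U ≤ M)
    (hKM : K ≤ M) (hKU : K ≤ Subgroup.normalizer (U : Set G)) {k : G} (hk : k ∈ K)
    (hfpf : U ⊓ Subgroup.centralizer ({k} : Set G) = ⊥) : U ≤ ⁅M, M⁆ := by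
  have hmem : ∀ u ∈ U, u * k * u⁻¹ * k⁻¹ ∈ U := by
    intro u hu
    have h1 : k * u⁻¹ * k⁻¹ ∈ U :=
      (Subgroup.mem_normalizer_iff.mp (hKU hk) u⁻¹).mp (U.inv_mem hu)
    have h2 := U.mul_mem hu h1
    simpa [mul_assoc] using h2
  have hinj : Function.Injective
      (fun u : U => (⟨(u : G) * k * (u : G)⁻¹ * k⁻¹, hmem u u.2⟩ : U)) := by
    intro u v huv
    have h1 : (u : G) * k * (u : G)⁻¹ * k⁻¹ = (v : G) * k * (v : G)⁻¹ * k⁻¹ :=
      congrArg Subtype.val huv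
    have h2 : (u : G) * k * (u : G)⁻¹ = (v : G) * k * (v : G)⁻¹ := mul_right_cancel h1
    have h3 : ((v : G)⁻¹ * u) ∈ U ⊓ Subgroup.centralizer ({k} : Set G) := by
      refine Subgroup.mem_inf.mpr ⟨U.mul_mem (U.inv_mem v.2) u.2, ?_⟩
      rw [Subgroup.mem_centralizer_singleton_iff]
      have h4 : (v : G)⁻¹ * ((u : G) * k * (u : G)⁻¹) * u =
          (v : G)⁻¹ * ((v : G) * k * (v : G)⁻¹) * u := by
        rw [h2]
      calc (v : G)⁻¹ * u * k = (v : G)⁻¹ * ((u : G) * k * (u : G)⁻¹) * u := by group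
        _ = (v : G)⁻¹ * ((v : G) * k * (v : G)⁻¹) * u := h4
        _ = k * ((v : G)⁻¹ * u) := by group
    rw [hfpf, Subgroup.mem_bot] at h3
    apply Subtype.ext
    have h5 : (u : G) = v := by
      have := congrArg (fun t => (v : G) * t) h3
      simpa using this
    exact h5
  have hsurj := Finite.surjective_of_injective hinj
  intro u hu
  obtain ⟨v, hv⟩ := hsurj ⟨u, hu⟩
  have h1 : (v : G) * k * (v : G)⁻¹ * k⁻¹ = u := congrArg Subtype.val hv
  rw [← h1]
  exact Subgroup.commutator_mem_commutator (hUM v.2) (hKM hk)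

/-- A subgroup of a commutative subgroup is commutative. -/
theorem isMulCommutative_of_le' {G : Type*} [Group G] {H K : Subgroup G} (h : H ≤ K)
    (hK : IsMulCommutative K) : IsMulCommutative H :=
  ⟨⟨fun a b => by
      have h1 := hK.is_comm.comm ⟨a.1, h a.2⟩ ⟨b.1, h b.2⟩
      have h2 : (a : G) * (b : G) = (b : G) * (a : G) := congrArg Subtype.val h1
      exact Subtype.ext h2⟩⟩

/-- CASE I of S1430: clauses (1), (2), (3a), (3b), from the packages. -/
theorem caseI_of (hKF : LemKappaFix.{u}) (hKT : LemKappaTau1.{u}) (hUex : LemUex.{u})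
    (hUreg : LemUreg.{u})
    {G : Type u} [Group G] [Finite G] (hG : Cfsg.IsMinSimpleOddOrder G) (hy : Hy hG)
    (h12 : Cfsg.Agent.Lib.Helper25.BG30.Hyp1312 G)
    (M : Subgroup G) (hM : IsCoatom M) (K : Subgroup G)
    (hK : Cfsg.IsPiHallOf (Cfsg.kappa M) K M) (hK1 : K ≠ ⊥) (E : Subgroup G)
    (hE : Cfsg.IsComplIn E (Cfsg.sigmaCore M) M) (hKE : K ≤ E) (hreg : Tau3Reg M E) :
    ConclAB M K := by
  have hκ : ∀ p ∈ Cfsg.kappa M, p ∈ Cfsg.tau1 M :=
    fun p hp => hKT hKF hG hy M hM E hE hreg p hp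
  have hEM : E ≤ M := hE.1
  have hEtop : E ≠ ⊤ := by
    intro h
    rw [h] at hEM
    exact hM.1 (top_le_iff.mp hEM)
  have hsolvE : Group.IsSolvable E := hG.2.2.2 E hEtop
  have hKτ : ∀ p : ℕ, p.Prime → p ∣ Nat.card K → p ∈ Cfsg.tau1 M :=
    fun p hp hd => hκ p (hK.2.1 p hp hd)
  obtain ⟨E1, hE1, hKE1⟩ :=
    Cfsg.Agent.Lib.Helper67.BG.exists_piHallOf_ge (Cfsg.tau1 M) E hsolvE K hKE hKτ
  have hE1c : IsCyclic E1 := (hy.h1415 M hM E hE).2.1 E1 hE1
  have hKc : IsCyclic K :=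
    isCyclic_of_injective (Subgroup.inclusion hKE1) (Subgroup.inclusion_injective hKE1)
  have hsemi := Cfsg.Agent.Lib.Helper85.BG.tau1_semiprime hG hy.h1415 hy.h1427 hy.h1428
    M hM E hE E1 hE1
  -- clause (1)
  have hc1 : ∀ k ∈ K, k ≠ 1 → Cfsg.sigmaCore M ⊓ Subgroup.centralizer ({k} : Set G) =
      Cfsg.sigmaCore M ⊓ Subgroup.centralizer (K : Set G) := by
    intro k hk hk1
    apply le_antisymm
    · rw [hsemi k (hKE1 hk) hk1]
      exact inf_le_inf_left _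
        (Subgroup.centralizer_le (show (K : Set G) ⊆ (E1 : Set G) from hKE1))
    · exact inf_le_inf_left _
        (Subgroup.centralizer_le (Set.singleton_subset_iff.mpr hk))
  -- the complement U
  obtain ⟨U, hEU, hUhall, hUK⟩ := hUex hG hy M hM E hE K hK hKE hκ
  have hUr : ∀ k ∈ K, k ≠ 1 → U ⊓ Subgroup.centralizer ({k} : Set G) = ⊥ :=
    fun k hk hk1 => hUreg hKF hG hy h12 M hM E hE K hK hKE hκ U hUK.1 hUhall k hk hk1
  have hKU : K ≤ Subgroup.normalizer (U : Set G) := hKE.trans hEU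
  -- U is abelian
  have hUab : IsMulCommutative U := by
    obtain ⟨⟨k, hk⟩, hk1'⟩ := (Subgroup.ne_bot_iff_exists_ne_one).mp hK1
    have hk1 : k ≠ 1 := fun h => hk1' (Subtype.ext h)
    have hle : U ≤ ⁅E, E⁆ := le_comm_of_fpf' hUK.1 hKE hKU hk (hUr k hk hk1)
    exact isMulCommutative_of_le' hle (hy.h1420 M hM E hE).2.1
  -- K is abelian, so normalizes its subgroups
  have hKcomm : ∀ a ∈ K, ∀ b ∈ K, a * b = b * a := by
    intro a ha b hb
    obtain ⟨g, hg⟩ := hKc.exists_generator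
    obtain ⟨i, hi⟩ := Subgroup.mem_zpowers_iff.mp (hg ⟨a, ha⟩)
    obtain ⟨j, hj⟩ := Subgroup.mem_zpowers_iff.mp (hg ⟨b, hb⟩)
    have h1 : (⟨a, ha⟩ : K) * ⟨b, hb⟩ = ⟨b, hb⟩ * ⟨a, ha⟩ := by
      rw [← hi, ← hj, ← zpow_add, ← zpow_add, add_comm]
    exact congrArg Subtype.val h1
  have hKnorm : ∀ X : Subgroup G, X ≤ K → K ≤ Subgroup.normalizer (X : Set G) := by
    intro X hXK k hk
    rw [Subgroup.mem_normalizer_iff]
    intro x
    constructor
    · intro hx
      have e1 : k * x * k⁻¹ = x := by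
        rw [hKcomm k hk x (hXK hx)]; group
      rw [e1]; exact hx
    · intro hx
      have e1 : k⁻¹ * (k * x * k⁻¹) * k = k * x * k⁻¹ := by
        have e2 := hKcomm k hk (k * x * k⁻¹) (hXK hx)
        calc k⁻¹ * (k * x * k⁻¹) * k = k⁻¹ * ((k * x * k⁻¹) * k) := by group
          _ = k⁻¹ * (k * (k * x * k⁻¹)) := by rw [e2]
          _ = k * x * k⁻¹ := by group
      have e3 : x = k⁻¹ * (k * x * k⁻¹) * k := by group
      rw [e3, e1]; exact hx
  have hMS := Cfsg.Agent.Lib.Helper67.BG.sigmaCore_normalizer M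
  refine ⟨hc1, ⟨U, hUab, hUhall, hKU, hUr⟩, ?_⟩
  intro X hXK hXp
  have hX1 : X ≠ ⊥ := by
    intro h
    rw [h, Subgroup.card_bot] at hXp
    exact Nat.not_prime_one hXp
  exact ⟨norm_formula M (Cfsg.sigmaCore M) E U K hE hMS hUK hEU hUr hc1 X hXK hX1
      (hKnorm X hXK),
    norm_formula M (Cfsg.sigmaCore M) E U K hE hMS hUK hEU hUr hc1 K le_rfl hK1
      (hKnorm K le_rfl)⟩

end Cfsg.Agent.Lib.Helper50.BG30
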